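import Mathlib
import Cfsg.Prelude.Def_AxialAlgebras

set_option autoImplicit false

/-! Eigenvector bookkeeping for Majorana axes. -/

namespace CfsgLib.Majorana

open Cfsg.Axial

variable {V : Type*} [AddCommGroup V] [Module ℝ V]

theorem mem_eigen {mul : V →ₗ[ℝ] V →ₗ[ℝ] V} {a v : V} {c : ℝ} :
    v ∈ eigen mul a c ↔ mul a v = c • v := Module.End.mem_eigenspace_iff

theorem eigenSum_singleton (mul : V →ₗ[ℝ] V →ₗ[ℝ] V) (a : V) (c : ℝ) :
    eigenSum mul a {c} = eigen mul a c := by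
  unfold eigenSum; exact iSup_singleton

theorem eigenSum_insert (mul : V →ₗ[ℝ] V →ₗ[ℝ] V) (a : V) (c : ℝ) (S : Set ℝ) :
    eigenSum mul a (insert c S) = eigen mul a c ⊔ eigenSum mul a S := by
  unfold eigenSum; exact iSup_insert

theorem mem_sum_one_zero {mul : V →ₗ[ℝ] V →ₗ[ℝ] V} {a v : V}
    (h : v ∈ eigenSum mul a {1, 0}) : mul a (mul a v) = mul a v := by
  rw [eigenSum_insert, eigenSum_singleton, Submodule.mem_sup] at h
  obtain ⟨p, hp, q, hq, rfl⟩ := h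
  rw [mem_eigen] at hp hq
  simp [hp, hq]

theorem law_zero_zero : monsterLaw (1 / 4 : ℝ) (1 / 32) 0 0 = {0} := by
  norm_num [monsterLaw]

theorem law_zero_quarter : monsterLaw (1 / 4 : ℝ) (1 / 32) 0 (1 / 4) = {1 / 4} := by
  norm_num [monsterLaw]

theorem law_quarter_quarter : monsterLaw (1 / 4 : ℝ) (1 / 32) (1 / 4) (1 / 4) = {1, 0} := by
  norm_num [monsterLaw]

theorem mul_idem {mul : V →ₗ[ℝ] V →ₗ[ℝ] V} {B : LinearMap.BilinForm ℝ V} {μ : V ≃ₗ[ℝ] V} {a : V}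
    (h : IsMajoranaPair mul B μ a) : mul a a = a := h.2.2.1.1.2.1

theorem axis_ne_zero {mul : V →ₗ[ℝ] V →ₗ[ℝ] V} {B : LinearMap.BilinForm ℝ V} {μ : V ≃ₗ[ℝ] V} {a : V}
    (h : IsMajoranaPair mul B μ a) : a ≠ 0 := h.2.2.1.1.1

theorem fusion {mul : V →ₗ[ℝ] V →ₗ[ℝ] V} {B : LinearMap.BilinForm ℝ V} {μ : V ≃ₗ[ℝ] V} {a : V}
    (h : IsMajoranaPair mul B μ a) {c d : ℝ} (hc : c ∈ majoranaSpectrum) (hd : d ∈ majoranaSpectrum)
    {u v : V} (hu : u ∈ eigen mul a c) (hv : v ∈ eigen mul a d) :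
    mul u v ∈ eigenSum mul a (monsterLaw (1 / 4) (1 / 32) c d) := h.2.2.1.1.2.2.2 c hc d hd u hu v hv

end CfsgLib.Majorana
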