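import Cfsg.Agent.Majorana.Sakuma

set_option autoImplicit false

/-! The axes of the dihedral group generated by two Majorana involutions. -/

namespace CfsgLib.Majorana

open Cfsg.Axial

variable {V : Type*} [AddCommGroup V] [Module ℝ V]
variable {mul : V →ₗ[ℝ] V →ₗ[ℝ] V} {B : LinearMap.BilinForm ℝ V}

theorem eigen_transport (ν : V ≃ₗ[ℝ] V) (hν : ∀ u v, ν (mul u v) = mul (ν u) (ν v)) (a : V) (r : ℝ) :
    eigen mul (ν a) r = (eigen mul a r).map (ν : V →ₗ[ℝ] V) := by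
  ext v
  rw [mem_eigen, Submodule.mem_map]
  constructor
  · intro hv
    refine ⟨ν.symm v, mem_eigen.2 ?_, ν.apply_symm_apply v⟩
    apply ν.injective
    rw [hν, map_smul, ν.apply_symm_apply, hv]
  · rintro ⟨w, hw, rfl⟩
    rw [LinearEquiv.coe_coe, ← hν, mem_eigen.1 hw, map_smul]

theorem pair_transport {μ ν : V ≃ₗ[ℝ] V} {a : V} (hν : ∀ u v, ν (mul u v) = mul (ν u) (ν v))
    (hνB : ∀ u v, B (ν u) (ν v) = B u v) (hμ : IsMajoranaPair mul B μ a) :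
    IsMajoranaPair mul B (ν * μ * ν⁻¹) (ν a) := by
  obtain ⟨hmul, hB, ⟨⟨hane, hidem, hspan, hlaw⟩, hprim⟩, hplus, hneg⟩ := hμ
  have heS : ∀ S, eigenSum mul (ν a) S = (eigenSum mul a S).map (ν : V →ₗ[ℝ] V) := by
    intro S
    simp only [eigenSum, Submodule.map_iSup, eigen_transport ν hν]
  have hinv : ∀ w, ν⁻¹ (ν w) = w := fun w => ν.symm_apply_apply w
  have happ : ∀ w, (ν * μ * ν⁻¹) w = ν (μ (ν⁻¹ w)) := fun w => rfl
  have hνi : ∀ w, ν (ν⁻¹ w) = w := fun w => ν.apply_symm_apply w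
  have hm' : ∀ u v, ν⁻¹ (mul u v) = mul (ν⁻¹ u) (ν⁻¹ v) := fun u v => ν.injective (by
    rw [hνi, hν, hνi, hνi])
  refine ⟨fun u v => ?_, fun u v => ?_, ⟨⟨fun h => hane (ν.injective (by simpa using h)), ?_, ?_, ?_⟩, ?_⟩, ?_, ?_⟩
  · rw [happ, happ, happ, hm', hmul, hν]
  · rw [happ, happ, hνB, hB]
    conv_rhs => rw [← hνi u, ← hνi v, hνB]
  · rw [← hν, hidem]
  · rw [heS, hspan, Submodule.map_top, LinearEquiv.range]
  · intro r hr t ht u hu v hv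
    rw [eigen_transport ν hν] at hu hv
    obtain ⟨u', hu', rfl⟩ := hu
    obtain ⟨v', hv', rfl⟩ := hv
    rw [heS]
    exact ⟨mul u' v', hlaw r hr t ht u' hu' v' hv', hν u' v'⟩
  · rw [eigen_transport ν hν, hprim, Submodule.map_span, Set.image_singleton]
    rfl
  · intro v hv
    rw [heS] at hv
    obtain ⟨w, hw, rfl⟩ := hv
    simp only [LinearEquiv.coe_coe, happ, hinv]
    rw [show μ w = w from hplus w hw]
  · intro v hv
    rw [eigen_transport ν hν] at hv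
    obtain ⟨w, hw, rfl⟩ := hv
    simp only [LinearEquiv.coe_coe, happ, hinv]
    rw [show μ w = -w from hneg w hw, map_neg]

/-- A Miyamoto map is determined by its axis. -/
theorem pair_unique {μ ν : V ≃ₗ[ℝ] V} {a : V} (hμ : IsMajoranaPair mul B μ a)
    (hν : IsMajoranaPair mul B ν a) : μ = ν := by
  refine LinearEquiv.ext fun b => ?_
  have hmem : b ∈ eigenSum mul a majoranaSpectrum := by rw [hμ.2.2.1.1.2.2.1]; trivial
  rw [majoranaSpectrum, eigenSum_insert, eigenSum_insert, eigenSum_insert, eigenSum_singleton] at hmem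
  simp only [Submodule.mem_sup] at hmem
  obtain ⟨p, hp, r', ⟨u, hu, t, ⟨v, hv, w, hw, rfl⟩, rfl⟩, rfl⟩ := hmem
  have hfix : ∀ (π : V ≃ₗ[ℝ] V), IsMajoranaPair mul B π a →
      π (p + (u + (v + w))) = p + (u + (v + -w)) := by
    intro π hπ
    have hsub : ∀ c ∈ ({1, 0, 1 / 4} : Set ℝ), ∀ z ∈ eigen mul a c, π z = z := by
      intro c hc z hz
      refine hπ.2.2.2.1 z ?_
      unfold eigenSum
      exact Submodule.mem_iSup_of_mem c (Submodule.mem_iSup_of_mem hc hz)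
    rw [map_add, map_add, map_add, hsub 1 (by simp) p hp, hsub 0 (by simp) u hu,
      hsub (1 / 4) (by simp) v hv, show π w = -w from hπ.2.2.2.2 w hw]
  rw [hfix μ hμ, hfix ν hν]

/-- Two Majorana involutions generate a dihedral group of order at most twelve. -/
theorem six_transposition (hV : IsMajoranaAmbient mul B) {μ₀ μ₁ : V ≃ₗ[ℝ] V} {a₀ a₁ : V}
    (h₀ : IsMajoranaPair mul B μ₀ a₀) (h₁ : IsMajoranaPair mul B μ₁ a₁)
    (hn₀ : B a₀ a₀ = 1) (hn₁ : B a₁ a₁ = 1) :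
    ∃ n : ℕ, 1 ≤ n ∧ n ≤ 6 ∧ (μ₀ * μ₁) ^ n = 1 := by
  let aut : Subgroup (V ≃ₗ[ℝ] V) :=
    { carrier := {f | (∀ u v, f (mul u v) = mul (f u) (f v)) ∧ ∀ u v, B (f u) (f v) = B u v}
      one_mem' := ⟨fun u v => rfl, fun u v => rfl⟩
      mul_mem' := by
        rintro f g ⟨hf, hf'⟩ ⟨hg, hg'⟩
        exact ⟨fun u v => by simp only [LinearEquiv.mul_apply, hg, hf],
          fun u v => by simp only [LinearEquiv.mul_apply, hf', hg']⟩
      inv_mem' := by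
        rintro f ⟨hf, hf'⟩
        have hi : ∀ w, f (f⁻¹ w) = w := fun w => f.apply_symm_apply w
        exact ⟨fun u v => f.injective (by rw [hi, hf, hi, hi]),
          fun u v => by rw [← hf', hi, hi]⟩ }
  have m0 : μ₀ ∈ aut := ⟨h₀.1, h₀.2.1⟩
  have m1 : μ₁ ∈ aut := ⟨h₁.1, h₁.2.1⟩
  set ρ := μ₁ * μ₀ with hρ
  have mρ : ∀ k : ℤ, ρ ^ k ∈ aut := fun k => Subgroup.zpow_mem _ (mul_mem m1 m0) k
  have i0 : μ₀ * μ₀ = 1 := LinearEquiv.ext fun b => inv_apply h₀ b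
  have i1 : μ₁ * μ₁ = 1 := LinearEquiv.ext fun b => inv_apply h₁ b
  have hinv : ρ⁻¹ = μ₀ * μ₁ := by
    apply inv_eq_of_mul_eq_one_right
    rw [hρ, mul_assoc, ← mul_assoc μ₀ μ₀, i0, one_mul, i1]
  have c0 : μ₀ * ρ * μ₀⁻¹ = ρ⁻¹ := by
    rw [hinv, hρ, inv_eq_of_mul_eq_one_right i0, mul_assoc, mul_assoc μ₁, i0, mul_one]
  have c1 : μ₁ * ρ * μ₁⁻¹ = ρ⁻¹ := by
    rw [hinv, hρ, inv_eq_of_mul_eq_one_right i1, ← mul_assoc μ₁ μ₁, i1, one_mul]
  have k0 : ∀ k : ℤ, μ₀ * ρ ^ k = ρ ^ (-k) * μ₀ := fun k => by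
    rw [zpow_neg, ← inv_zpow, ← c0, conj_zpow, inv_mul_cancel_right]
  have k1 : ∀ k : ℤ, μ₁ * ρ ^ k = ρ ^ (-k) * μ₁ := fun k => by
    rw [zpow_neg, ← inv_zpow, ← c1, conj_zpow, inv_mul_cancel_right]
  have f0 : μ₀ a₀ = a₀ := axis_fixed h₀
  have f1 : μ₁ a₁ = a₁ := axis_fixed h₁
  have z0 : ∀ (k : ℤ) (w : V), μ₀ ((ρ ^ k) w) = (ρ ^ (-k)) (μ₀ w) := fun k w => by
    have := LinearEquiv.congr_fun (k0 k) w
    simpa using this
  have z1 : ∀ (k : ℤ) (w : V), μ₁ ((ρ ^ k) w) = (ρ ^ (-k)) (μ₁ w) := fun k w => by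
    have := LinearEquiv.congr_fun (k1 k) w
    simpa using this
  have zadd : ∀ (j k : ℤ) (w : V), (ρ ^ j) ((ρ ^ k) w) = (ρ ^ (j + k)) w := fun j k w => by
    rw [zpow_add]; rfl
  have e10 : μ₁ a₀ = (ρ ^ (1 : ℤ)) a₀ := by
    rw [zpow_one, hρ, LinearEquiv.mul_apply, f0]
  have e01 : μ₀ a₁ = (ρ ^ (-1 : ℤ)) a₁ := by
    rw [zpow_neg, zpow_one, hinv, LinearEquiv.mul_apply, f1]
  let ax : ℤ → V := fun j => if j % 2 = 0 then (ρ ^ (j / 2)) a₀ else (ρ ^ (j / 2)) a₁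
  have axe : ∀ k : ℤ, ax (2 * k) = (ρ ^ k) a₀ := fun k => by simp [ax]
  have axo : ∀ k : ℤ, ax (2 * k + 1) = (ρ ^ k) a₁ := fun k => by
    simp [ax, show (2 * k + 1) / 2 = k by omega]
  have hpar : ∀ j : ℤ, ∃ k, j = 2 * k ∨ j = 2 * k + 1 := fun j => ⟨j / 2, by omega⟩
  have hS : AxisSeq mul B ax := by
    constructor
    · intro i
      obtain ⟨k, rfl | rfl⟩ := hpar i
      · rw [axe, (mρ k).2, hn₀]
      · rw [axo, (mρ k).2, hn₁]
    · intro i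
      obtain ⟨k, rfl | rfl⟩ := hpar i
      · refine ⟨ρ ^ k * μ₀ * (ρ ^ k)⁻¹, by rw [axe]; exact pair_transport (mρ k).1 (mρ k).2 h₀,
          fun j => ?_⟩
        rw [← zpow_neg]
        obtain ⟨l, rfl | rfl⟩ := hpar j
        · rw [axe, show 2 * (2 * k) - 2 * l = 2 * (k + -(-k + l)) by ring, axe]
          simp only [LinearEquiv.mul_apply, zadd, z0, f0]
        · rw [axo, show 2 * (2 * k) - (2 * l + 1) = 2 * (k + (-(-k + l) + -1)) + 1 by ring, axo]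
          simp only [LinearEquiv.mul_apply, zadd, z0, e01]
      · refine ⟨ρ ^ k * μ₁ * (ρ ^ k)⁻¹, by rw [axo]; exact pair_transport (mρ k).1 (mρ k).2 h₁,
          fun j => ?_⟩
        rw [← zpow_neg]
        obtain ⟨l, rfl | rfl⟩ := hpar j
        · rw [axe, show 2 * (2 * k + 1) - 2 * l = 2 * (k + (-(-k + l) + 1)) by ring, axe]
          simp only [LinearEquiv.mul_apply, zadd, z1, e10]
        · rw [axo, show 2 * (2 * k + 1) - (2 * l + 1) = 2 * (k + -(-k + l)) + 1 by ring, axo]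
          simp only [LinearEquiv.mul_apply, zadd, z1, f1]
  obtain ⟨n, hn1, hn6, hB⟩ := hS.sakuma hV
  have hax0 : ax 0 = a₀ := by simpa using axe 0
  have heq : ax 0 = ax (n : ℤ) := by
    by_contra hne
    have := hV.2.2.1 _ (sub_ne_zero.2 hne)
    simp only [map_sub, LinearMap.sub_apply, hS.norm, hV.2.1 (ax (n : ℤ)) (ax 0), hB] at this
    linarith
  refine ⟨n, hn1, hn6, ?_⟩
  obtain ⟨k, hk | hk⟩ := hpar (n : ℤ)
  · rw [hk, axe, hax0] at heq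
    have hu := pair_unique (pair_transport (mρ k).1 (mρ k).2 h₀) (heq ▸ h₀)
    rw [← zpow_neg, mul_assoc, k0, neg_neg, ← mul_assoc, ← zpow_add] at hu
    have h2 : ρ ^ (n : ℤ) = 1 := by
      rw [hk, two_mul]
      simpa using hu
    rw [← hinv, inv_pow, inv_eq_one, ← zpow_natCast, h2]
  · rw [hk, axo, hax0] at heq
    have hu := pair_unique (pair_transport (mρ k).1 (mρ k).2 h₁) (heq ▸ h₀)
    rw [← zpow_neg, mul_assoc, k1, neg_neg, ← mul_assoc, ← zpow_add] at hu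
    have h2 : ρ ^ (n : ℤ) = 1 := by
      rw [hk, two_mul, zpow_add, zpow_one, hρ, ← mul_assoc, hu, i0]
    rw [← hinv, inv_pow, inv_eq_one, ← zpow_natCast, h2]

end CfsgLib.Majorana
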