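import Cfsg.Agent.Majorana.Basic

set_option autoImplicit false

/-! One Majorana axis against a second vector: eigen components and the basic fused identities. -/

namespace CfsgLib.Majorana

open Cfsg.Axial

variable {V : Type*} [AddCommGroup V] [Module ℝ V]
variable {mul : V →ₗ[ℝ] V →ₗ[ℝ] V} {B : LinearMap.BilinForm ℝ V}

/-- The invariant part of a product of two axes. -/
noncomputable def pr (mul : V →ₗ[ℝ] V →ₗ[ℝ] V) (a b : V) : V :=
  mul a b - (1 / 32 : ℝ) • (a + b)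

theorem pr_comm (hc : IsCommMul mul) (a b : V) : pr mul a b = pr mul b a := by
  unfold pr; rw [hc a b, add_comm a b]

theorem mul_eq_pr (a b : V) : mul a b = pr mul a b + (1 / 32 : ℝ) • (a + b) := by
  unfold pr; abel

/-- The component of eigenvalue zero of `b` relative to `a`. -/
noncomputable def zPart (mul : V →ₗ[ℝ] V →ₗ[ℝ] V) (l : ℝ) (a b c : V) : V :=
  (7 / 16 : ℝ) • (b + c) - (4 : ℝ) • pr mul a b + (3 * l - 1 / 8) • a

/-- The component of eigenvalue one quarter of `b` relative to `a`. -/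
noncomputable def qPart (mul : V →ₗ[ℝ] V →ₗ[ℝ] V) (l : ℝ) (a b c : V) : V :=
  (4 : ℝ) • pr mul a b + (1 / 8 - 4 * l) • a + (1 / 16 : ℝ) • (b + c)

theorem decomp {μ : V ≃ₗ[ℝ] V} {a : V} (hm : IsMajoranaPair mul B μ a) (b : V) :
    ∃ (r : ℝ) (u v w : V), mul a u = 0 ∧ mul a v = (1 / 4 : ℝ) • v ∧ mul a w = (1 / 32 : ℝ) • w ∧
      μ u = u ∧ μ v = v ∧ μ w = -w ∧ μ a = a ∧ b = r • a + u + v + w := by
  have hmem : b ∈ eigenSum mul a majoranaSpectrum := by rw [hm.2.2.1.1.2.2.1]; trivial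
  rw [majoranaSpectrum, eigenSum_insert, eigenSum_insert, eigenSum_insert, eigenSum_singleton] at hmem
  simp only [Submodule.mem_sup] at hmem
  obtain ⟨p, hp, r', ⟨u, hu, t, ⟨v, hv, w, hw, rfl⟩, rfl⟩, rfl⟩ := hmem
  have hsub : ∀ c ∈ ({1, 0, 1 / 4} : Set ℝ), ∀ z ∈ eigen mul a c, μ z = z := by
    intro c hc z hz
    refine hm.2.2.2.1 z ?_
    unfold eigenSum
    exact Submodule.mem_iSup_of_mem c (Submodule.mem_iSup_of_mem hc hz)
  have hμw : μ w = -w := hm.2.2.2.2 w hw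
  have hμa : μ a = a := hsub 1 (by simp) a (mem_eigen.2 (by rw [mul_idem hm, one_smul]))
  have h1 : μ u = u := hsub 0 (by simp) u hu
  have h2 : μ v = v := hsub (1 / 4) (by simp) v hv
  rw [hm.2.2.1.2, Submodule.mem_span_singleton] at hp
  obtain ⟨r, rfl⟩ := hp
  refine ⟨r, u, v, w, ?_, mem_eigen.1 hv, mem_eigen.1 hw, h1, h2, hμw, hμa, by abel⟩
  rw [mem_eigen.1 hu, zero_smul]

theorem inv_apply {μ : V ≃ₗ[ℝ] V} {a : V} (hm : IsMajoranaPair mul B μ a) (b : V) : μ (μ b) = b := by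
  obtain ⟨r, u, v, w, -, -, -, h1, h2, h3, h0, rfl⟩ := decomp hm b
  simp only [map_add, map_smul, map_neg, h0, h1, h2, h3, neg_neg]

theorem axis_fixed {μ : V ≃ₗ[ℝ] V} {a : V} (hm : IsMajoranaPair mul B μ a) : μ a = a := by
  obtain ⟨r, u, v, w, -, -, -, -, -, -, h, -⟩ := decomp hm a
  exact h

/-- The basic facts about the two components. -/
theorem pair_facts (hV : IsMajoranaAmbient mul B) {μ : V ≃ₗ[ℝ] V} {a b : V}
    (hm : IsMajoranaPair mul B μ a) (hn : B a a = 1) :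
    pr mul a (μ b) = pr mul a b ∧
    mul a (zPart mul (B a b) a b (μ b)) = 0 ∧
    mul a (qPart mul (B a b) a b (μ b)) = (1 / 4 : ℝ) • qPart mul (B a b) a b (μ b) ∧
    mul a (pr mul a b) = (7 / 32 : ℝ) • pr mul a b + (3 / 4 * B a b - 25 / 1024) • a
      + (7 / 2048 : ℝ) • (b + μ b) := by
  obtain ⟨r, u, v, w, hu, hv, hw, h1, h2, h3, h0, hb⟩ := decomp hm b
  have ha := mul_idem hm
  have hassoc := hV.2.2.2.1
  have hBu : B a u = 0 := by
    have h := hassoc a a u
    rw [hu, ha, map_zero] at h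
    exact h.symm
  have hBv : B a v = 0 := by
    have h := hassoc a a v
    rw [hv, ha, map_smul, smul_eq_mul] at h
    linarith
  have hBw : B a w = 0 := by
    have h := hassoc a a w
    rw [hw, ha, map_smul, smul_eq_mul] at h
    linarith
  have hr : B a b = r := by
    rw [hb]; simp [map_add, map_smul, hn, hBu, hBv, hBw]
  have hμb : μ b = r • a + u + v - w := by
    rw [hb]; simp only [map_add, map_smul, h0, h1, h2, h3]; abel
  have hab : mul a b = r • a + (1 / 4 : ℝ) • v + (1 / 32 : ℝ) • w := by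
    rw [hb]; simp only [map_add, map_smul, ha, hu, hv, hw, add_zero]
  have hac : mul a (μ b) = r • a + (1 / 4 : ℝ) • v - (1 / 32 : ℝ) • w := by
    rw [hμb]; simp only [map_add, map_sub, map_smul, ha, hu, hv, hw, add_zero]
  have hz : zPart mul (B a b) a b (μ b) = u := by
    unfold zPart pr; rw [hab, hμb, hr, hb]; module
  have hq : qPart mul (B a b) a b (μ b) = v := by
    unfold qPart pr; rw [hab, hμb, hr, hb]; module
  refine ⟨?_, by rw [hz, hu], by rw [hq, hv], ?_⟩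
  · unfold pr; rw [hab, hac, hμb, hb]; module
  · unfold pr
    rw [hab, hμb, hr, hb]
    simp only [map_add, map_sub, map_smul, ha, hu, hv, hw, add_zero]
    module

/-- Products of the components obey the fusion law. -/
theorem fusion_facts (hV : IsMajoranaAmbient mul B) {μ : V ≃ₗ[ℝ] V} {a b : V}
    (hm : IsMajoranaPair mul B μ a) (hn : B a a = 1) :
    mul a (mul (zPart mul (B a b) a b (μ b)) (zPart mul (B a b) a b (μ b))) = 0 ∧
    mul a (mul (zPart mul (B a b) a b (μ b)) (qPart mul (B a b) a b (μ b))) =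
      (1 / 4 : ℝ) • mul (zPart mul (B a b) a b (μ b)) (qPart mul (B a b) a b (μ b)) ∧
    mul a (mul a (mul (qPart mul (B a b) a b (μ b)) (qPart mul (B a b) a b (μ b)))) =
      mul a (mul (qPart mul (B a b) a b (μ b)) (qPart mul (B a b) a b (μ b))) := by
  obtain ⟨-, hz, hq, -⟩ := pair_facts (b := b) hV hm hn
  generalize hZ : zPart mul (B a b) a b (μ b) = z at hz ⊢
  generalize hQ : qPart mul (B a b) a b (μ b) = q at hq ⊢
  have hze : z ∈ eigen mul a 0 := mem_eigen.2 (by rw [hz, zero_smul])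
  have hqe : q ∈ eigen mul a (1 / 4) := mem_eigen.2 hq
  have h0 : (0 : ℝ) ∈ majoranaSpectrum := by simp [majoranaSpectrum]
  have h4 : (1 / 4 : ℝ) ∈ majoranaSpectrum := by simp [majoranaSpectrum]
  have e1 := fusion hm h0 h0 hze hze
  rw [law_zero_zero, eigenSum_singleton, mem_eigen, zero_smul] at e1
  have e2 := fusion hm h0 h4 hze hqe
  rw [law_zero_quarter, eigenSum_singleton, mem_eigen] at e2
  have e3 := fusion hm h4 h4 hqe hqe
  rw [law_quarter_quarter] at e3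
  exact ⟨e1, e2, mem_sum_one_zero e3⟩

set_option maxHeartbeats 1000000 in
/-- The key computation: the square of the invariant part, and the product of the axis with the opposite
invariant part of distance two. -/
theorem square_formula (hc : IsCommMul mul) {a b c d e s t t' : V} {l m : ℝ}
    (haa : mul a a = a) (hbb : mul b b = b) (hcc : mul c c = c)
    (hab : mul a b = s + (1 / 32 : ℝ) • (a + b)) (hac : mul a c = s + (1 / 32 : ℝ) • (a + c))
    (hbc : mul b c = t' + (1 / 32 : ℝ) • (b + c))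
    (had : mul a d = t + (1 / 32 : ℝ) • (a + d)) (hae : mul a e = t + (1 / 32 : ℝ) • (a + e))
    (has : mul a s = (7 / 32 : ℝ) • s + (3 / 4 * l - 25 / 1024) • a + (7 / 2048 : ℝ) • (b + c))
    (hat : mul a t = (7 / 32 : ℝ) • t + (3 / 4 * m - 25 / 1024) • a + (7 / 2048 : ℝ) • (d + e))
    (hbs : mul b s = (7 / 32 : ℝ) • s + (3 / 4 * l - 25 / 1024) • b + (7 / 2048 : ℝ) • (a + d))
    (hcs : mul c s = (7 / 32 : ℝ) • s + (3 / 4 * l - 25 / 1024) • c + (7 / 2048 : ℝ) • (a + e))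
    (hA : mul a (mul ((7 / 16 : ℝ) • (b + c) - (4 : ℝ) • s + (3 * l - 1 / 8) • a)
      ((7 / 16 : ℝ) • (b + c) - (4 : ℝ) • s + (3 * l - 1 / 8) • a)) = 0)
    (hB : mul a (mul ((7 / 16 : ℝ) • (b + c) - (4 : ℝ) • s + (3 * l - 1 / 8) • a)
      ((4 : ℝ) • s + (1 / 8 - 4 * l) • a + (1 / 16 : ℝ) • (b + c))) =
      (1 / 4 : ℝ) • mul ((7 / 16 : ℝ) • (b + c) - (4 : ℝ) • s + (3 * l - 1 / 8) • a)
      ((4 : ℝ) • s + (1 / 8 - 4 * l) • a + (1 / 16 : ℝ) • (b + c)))
    (hC : mul a (mul a (mul ((4 : ℝ) • s + (1 / 8 - 4 * l) • a + (1 / 16 : ℝ) • (b + c))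
      ((4 : ℝ) • s + (1 / 8 - 4 * l) • a + (1 / 16 : ℝ) • (b + c)))) =
      mul a (mul ((4 : ℝ) • s + (1 / 8 - 4 * l) • a + (1 / 16 : ℝ) • (b + c))
      ((4 : ℝ) • s + (1 / 8 - 4 * l) • a + (1 / 16 : ℝ) • (b + c)))) :
    mul s s = (-13 / 1536 - 5 / 12 * l) • s - (7 / 1536 : ℝ) • t + (7 / 2048 : ℝ) • t'
        + (-7 / 98304 - 7 / 384 * l + 7 / 1536 * m + 7 / 6 * l ^ 2) • a
        + (-245 / 196608 + 49 / 768 * l) • (b + c) + (49 / 196608 : ℝ) • (d + e) ∧
    mul a t' = (-64 / 7 : ℝ) • mul s s + (-9 / 512 + 3 / 4 * l) • (b + c) + (7 / 2048 : ℝ) • (d + e)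
        + (-43 / 1024 + 3 / 2 * l) • a + (-53 / 112 + 48 / 7 * l) • s + (1 / 32 : ℝ) • t
        + (1 / 32 : ℝ) • t' := by
  simp only [map_add, map_sub, map_smul, LinearMap.add_apply, LinearMap.sub_apply, LinearMap.smul_apply,
    hc b a, hc c a, hc c b, hc s a, hc s b, hc s c, haa, hbb, hcc, hab, hac, hbc, had, hae, has, hat,
    hbs, hcs] at hA hB hC
  have hX : mul a t' = (-64 / 7 : ℝ) • mul s s + (-9 / 512 + 3 / 4 * l) • (b + c)
      + (7 / 2048 : ℝ) • (d + e) + (-43 / 1024 + 3 / 2 * l) • a + (-53 / 112 + 48 / 7 * l) • s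
      + (1 / 32 : ℝ) • t + (1 / 32 : ℝ) • t' := by
    linear_combination (norm := module) (16 / 7 : ℝ) • hA + (16 / 7 : ℝ) • hB
  rw [hX] at hA
  have hY : mul a (mul s s) = (7 / 32 : ℝ) • mul s s + (385 / 2097152 - 105 / 8192 * l) • (b + c)
      + (-245 / 4194304 : ℝ) • (d + e)
      + (123 / 2097152 - 3 / 4096 * l + 9 / 16 * l ^ 2) • a + (-63 / 16384 + 21 / 128 * l) • s
      + (49 / 65536 : ℝ) • t + (-49 / 65536 : ℝ) • t' := by
    linear_combination (norm := module) (1 / 16 : ℝ) • hA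
  simp only [map_add, map_sub, map_smul, haa, hab, hac, had, hae, has, hat, hX, hY] at hC
  refine ⟨?_, hX⟩
  linear_combination (norm := module) (-7 / 18 : ℝ) • hC

end CfsgLib.Majorana
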