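import Cfsg.Agent.Majorana.Pair

set_option autoImplicit false
set_option linter.unusedSimpArgs false

/-! The dihedral relations between the axes of two Majorana involutions, and Sakuma's bound. -/

namespace CfsgLib.Majorana

open Cfsg.Axial

variable {V : Type*} [AddCommGroup V] [Module ℝ V]
variable {mul : V →ₗ[ℝ] V →ₗ[ℝ] V} {B : LinearMap.BilinForm ℝ V}

theorem form_self (hV : IsMajoranaAmbient mul B) {a b : V} (haa : mul a a = a) (hn : B a a = 1) :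
    B a (pr mul a b) = B a b - (1 + B a b) / 32 := by
  unfold pr
  simp only [map_sub, map_smul, map_add, smul_eq_mul]
  rw [hV.2.2.2.1, haa, hn]
  ring

theorem form_move (hV : IsMajoranaAmbient mul B) (a b c : V) :
    B c (pr mul a b) = B a (pr mul b c) + (B a b - B c b) / 32 := by
  unfold pr
  simp only [map_sub, map_smul, map_add, smul_eq_mul]
  have h : B c (mul a b) = B a (mul b c) := by
    rw [hV.2.2.2.1 a b c, hV.2.1 c (mul a b)]
  rw [h, hV.2.1 a c]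
  ring

/-- A family of axes closed under its own reflections. -/
structure AxisSeq (mul : V →ₗ[ℝ] V →ₗ[ℝ] V) (B : LinearMap.BilinForm ℝ V) (ax : ℤ → V) : Prop where
  norm : ∀ i, B (ax i) (ax i) = 1
  refl : ∀ i, ∃ μ : V ≃ₗ[ℝ] V, IsMajoranaPair mul B μ (ax i) ∧ ∀ j, μ (ax j) = ax (2 * i - j)

variable {ax : ℤ → V}

theorem AxisSeq.idem (hS : AxisSeq mul B ax) (i : ℤ) : mul (ax i) (ax i) = ax i := by
  obtain ⟨μ, hμ, -⟩ := hS.refl i
  exact mul_idem hμ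

theorem AxisSeq.form_refl (hS : AxisSeq mul B ax) (k i j : ℤ) :
    B (ax i) (ax j) = B (ax (2 * k - i)) (ax (2 * k - j)) := by
  obtain ⟨μ, hμ, h⟩ := hS.refl k
  rw [← h i, ← h j, hμ.2.1]

theorem AxisSeq.form_shift (hS : AxisSeq mul B ax) (i j : ℤ) :
    B (ax i) (ax j) = B (ax (i + 2)) (ax (j + 2)) := by
  rw [hS.form_refl 0 i j, hS.form_refl 1 (2 * 0 - i) (2 * 0 - j)]
  ring_nf

theorem AxisSeq.pr_step (hS : AxisSeq mul B ax) (hV : IsMajoranaAmbient mul B) (i d : ℤ) :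
    pr mul (ax i) (ax (i + d)) = pr mul (ax (i - d)) (ax i) := by
  obtain ⟨μ, hμ, h⟩ := hS.refl i
  have h1 := (pair_facts (b := ax (i + d)) hV hμ (hS.norm i)).1
  rw [h, show 2 * i - (i + d) = i - d by ring] at h1
  rw [← h1, pr_comm hV.1]

/-- The six facts used by the square formula, at the base point `i`. -/
theorem AxisSeq.local_square (hS : AxisSeq mul B ax) (hV : IsMajoranaAmbient mul B) {s t t' : V}
    {l m : ℝ} (i : ℤ) (hs : ∀ j, pr mul (ax j) (ax (j + 1)) = s)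
    (ht : pr mul (ax i) (ax (i + 2)) = t) (ht2 : pr mul (ax (i - 2)) (ax i) = t)
    (ht' : pr mul (ax (i - 1)) (ax (i + 1)) = t')
    (hl : ∀ j, B (ax j) (ax (j + 1)) = l) (hm : B (ax i) (ax (i + 2)) = m) :
    mul s s = (-13 / 1536 - 5 / 12 * l) • s - (7 / 1536 : ℝ) • t + (7 / 2048 : ℝ) • t'
        + (-7 / 98304 - 7 / 384 * l + 7 / 1536 * m + 7 / 6 * l ^ 2) • ax i
        + (-245 / 196608 + 49 / 768 * l) • (ax (i + 1) + ax (i - 1))
        + (49 / 196608 : ℝ) • (ax (i + 2) + ax (i - 2)) ∧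
    mul (ax i) t' = (-64 / 7 : ℝ) • mul s s + (-9 / 512 + 3 / 4 * l) • (ax (i + 1) + ax (i - 1))
        + (7 / 2048 : ℝ) • (ax (i + 2) + ax (i - 2)) + (-43 / 1024 + 3 / 2 * l) • ax i
        + (-53 / 112 + 48 / 7 * l) • s + (1 / 32 : ℝ) • t + (1 / 32 : ℝ) • t' := by
  obtain ⟨μ, hμ, h⟩ := hS.refl i
  have hn := hS.norm i
  have e1 : μ (ax (i + 1)) = ax (i - 1) := by rw [h]; congr 1; ring
  have e2 : μ (ax (i + 2)) = ax (i - 2) := by rw [h]; congr 1; ring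
  obtain ⟨-, -, -, has⟩ := pair_facts (b := ax (i + 1)) hV hμ hn
  obtain ⟨-, -, -, hat⟩ := pair_facts (b := ax (i + 2)) hV hμ hn
  obtain ⟨hA, hB, hC⟩ := fusion_facts (b := ax (i + 1)) hV hμ hn
  rw [e1, hs, hl] at has
  rw [e2, ht, hm] at hat
  simp only [zPart, qPart, e1, hs, hl] at hA hB hC
  obtain ⟨ν, hν, h'⟩ := hS.refl (i + 1)
  obtain ⟨-, -, -, hbs⟩ := pair_facts (b := ax i) hV hν (hS.norm _)
  rw [h', pr_comm hV.1, hs, hV.2.1, hl, show 2 * (i + 1) - i = i + 2 by ring] at hbs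
  obtain ⟨π, hπ, h''⟩ := hS.refl (i - 1)
  obtain ⟨-, -, -, hcs⟩ := pair_facts (b := ax i) hV hπ (hS.norm _)
  have hsm : pr mul (ax (i - 1)) (ax i) = s := by simpa using hs (i - 1)
  have hlm : B (ax (i - 1)) (ax i) = l := by simpa using hl (i - 1)
  rw [h'', hsm, hlm, show 2 * (i - 1) - i = i - 2 by ring] at hcs
  refine square_formula hV.1 (hS.idem i) (hS.idem _) (hS.idem _) ?_ ?_ ?_ ?_ ?_ has hat hbs hcs hA hB hC
  · rw [mul_eq_pr (mul := mul), hs]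
  · rw [mul_eq_pr (mul := mul), pr_comm hV.1, hsm]
  · rw [mul_eq_pr (mul := mul), pr_comm hV.1, ht']
  · rw [mul_eq_pr (mul := mul), ht]
  · rw [mul_eq_pr (mul := mul), pr_comm hV.1, ht2]

set_option maxHeartbeats 4000000 in
/-- Sakuma: the sequence of axes has period at most six. -/
theorem AxisSeq.sakuma (hS : AxisSeq mul B ax) (hV : IsMajoranaAmbient mul B) :
    ∃ n : ℕ, 1 ≤ n ∧ n ≤ 6 ∧ B (ax 0) (ax (n : ℤ)) = 1 := by
  have hc := hV.1
  have hsy := hV.2.1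
  -- invariant parts
  obtain ⟨s, hs⟩ : ∃ s, ∀ j, pr mul (ax j) (ax (j + 1)) = s := by
    refine ⟨pr mul (ax 0) (ax 1), fun j => ?_⟩
    induction j using Int.induction_on with
    | zero => simp
    | succ n ih =>
      rw [hS.pr_step hV ((n : ℤ) + 1) 1, show (n : ℤ) + 1 - 1 = n by ring, ih]
    | pred n ih =>
      have := hS.pr_step hV (-(n : ℤ)) 1
      rw [ih] at this
      rw [this, show -(n : ℤ) - 1 + 1 = -n by ring]
  -- inner products by distance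
  obtain ⟨L, hl⟩ : ∃ L, ∀ j, B (ax j) (ax (j + 1)) = L := by
    refine ⟨B (ax 0) (ax 1), fun j => ?_⟩
    induction j using Int.induction_on with
    | zero => simp
    | succ n ih =>
      rw [← ih, hS.form_refl ((n : ℤ) + 1) ((n : ℤ) + 1) ((n : ℤ) + 1 + 1),
        show 2 * ((n : ℤ) + 1) - ((n : ℤ) + 1) = n + 1 by ring,
        show 2 * ((n : ℤ) + 1) - ((n : ℤ) + 1 + 1) = n by ring, hsy]
    | pred n ih =>
      rw [← ih, hS.form_refl (-(n : ℤ)) (-(n : ℤ)) (-(n : ℤ) + 1),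
        show 2 * -(n : ℤ) - -(n : ℤ) = -n by ring,
        show 2 * -(n : ℤ) - (-(n : ℤ) + 1) = -n - 1 by ring, hsy, sub_add_cancel]
  set M := B (ax 0) (ax 2) with hM
  set Mo := B (ax (-1)) (ax 1) with hMo
  set N := B (ax 0) (ax 3) with hN
  set P := B (ax 0) (ax 4) with hP
  set Po := B (ax (-1)) (ax 3) with hPo
  set Q := B (ax 0) (ax 5) with hQ
  set R := B (ax 0) (ax 6) with hR
  have sh := hS.form_shift
  have g13 : B (ax 1) (ax 3) = Mo := by
    rw [hMo, sh (-1) 1]; norm_num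
  have g24 : B (ax 2) (ax 4) = M := (sh 0 2).symm
  have gm20 : B (ax (-2)) (ax 0) = M := sh (-2) 0
  have gm13 : B (ax (-1)) (ax 3) = Po := rfl
  have gm22 : B (ax (-2)) (ax 2) = P := sh (-2) 2
  have gm23 : B (ax (-2)) (ax 3) = Q := sh (-2) 3
  have gm24 : B (ax (-2)) (ax 4) = R := sh (-2) 4
  have g14 : B (ax 1) (ax 4) = N := by
    rw [hS.form_refl 2 1 4]; norm_num; rw [hsy]
  have gm21 : B (ax (-2)) (ax 1) = N := sh (-2) 1
  have gm12 : B (ax (-1)) (ax 2) = N := (sh (-1) 2).trans g14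
  have gm30 : B (ax 0) (ax (-3)) = N := by
    rw [hS.form_refl 0 0 (-3)]; norm_num; rfl
  have gm14 : B (ax (-1)) (ax 4) = Q := by
    rw [hS.form_refl 2 (-1) 4]; norm_num; rw [hsy]
  have d0 : B (ax (-2)) (ax (-1)) = L := hl (-2)
  have d1 : B (ax (-1)) (ax 0) = L := hl (-1)
  have d2 : B (ax 0) (ax 1) = L := hl 0
  have d3 : B (ax 1) (ax 2) = L := hl 1
  have d4 : B (ax 2) (ax 3) = L := hl 2
  have d5 : B (ax 3) (ax 4) = L := hl 3
  have d6 : B (ax (-3)) (ax (-2)) = L := hl (-3)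
  -- the invariant parts at distances two and three
  set t0 := pr mul (ax 0) (ax 2) with ht0
  set t1 := pr mul (ax (-1)) (ax 1) with ht1
  set q0 := pr mul (ax 0) (ax 3) with hq0
  set q1 := pr mul (ax (-2)) (ax 1) with hq1
  have t24 : pr mul (ax 2) (ax 4) = t0 := hS.pr_step hV 2 2
  have tm20 : pr mul (ax (-2)) (ax 0) = t0 := (hS.pr_step hV 0 2).symm
  have t13 : pr mul (ax 1) (ax 3) = t1 := hS.pr_step hV 1 2
  have qm30 : pr mul (ax (-3)) (ax 0) = q0 := (hS.pr_step hV 0 3).symm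
  obtain ⟨hS0, hX0⟩ := hS.local_square hV (t := t0) (t' := t1) (m := M) 0 hs (by norm_num; rfl)
    (by simpa using tm20) (by norm_num; rfl) hl (by norm_num; rfl)
  obtain ⟨hS1, hX1⟩ := hS.local_square hV (t := t1) (t' := t0) (m := Mo) 1 hs (by norm_num; exact t13)
    (by norm_num; rfl) (by norm_num; rfl) hl (by norm_num; exact g13)
  norm_num at hS0 hX0 hS1 hX1
  rw [hS0] at hX0
  rw [hS1] at hX1
  -- the linear relation between consecutive axes
  have hr : ((-49 / 32768 + 49 / 768 * L) • ax (-1) + (49 / 196608 : ℝ) • ax (-2)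
      + (77 / 65536 - 21 / 256 * L + 7 / 1536 * M + 7 / 6 * L ^ 2) • ax 0
      + (-77 / 65536 + 21 / 256 * L - 7 / 1536 * Mo - 7 / 6 * L ^ 2) • ax 1
      + (49 / 32768 - 49 / 768 * L) • ax 2 + (-49 / 196608 : ℝ) • ax 3
      + (-49 / 6144 : ℝ) • t0 + (49 / 6144 : ℝ) • t1) = 0 := by
    linear_combination (norm := module) hS1 - hS0
  -- products with the two base axes
  have i0 := hS.idem 0
  have i1 := hS.idem 1
  have p0 : mul (ax 0) (ax 1) = s + (1 / 32 : ℝ) • (ax 0 + ax 1) := by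
    rw [mul_eq_pr (mul := mul), show pr mul (ax 0) (ax 1) = s from hs 0]
  have p0m : mul (ax 0) (ax (-1)) = s + (1 / 32 : ℝ) • (ax 0 + ax (-1)) := by
    rw [mul_eq_pr (mul := mul), pr_comm hc, show pr mul (ax (-1)) (ax 0) = s from hs (-1)]
  have p02 : mul (ax 0) (ax 2) = t0 + (1 / 32 : ℝ) • (ax 0 + ax 2) := mul_eq_pr _ _
  have p02m : mul (ax 0) (ax (-2)) = t0 + (1 / 32 : ℝ) • (ax 0 + ax (-2)) := by
    rw [mul_eq_pr (mul := mul), pr_comm hc, tm20]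
  have p03 : mul (ax 0) (ax 3) = q0 + (1 / 32 : ℝ) • (ax 0 + ax 3) := mul_eq_pr _ _
  have p10 : mul (ax 1) (ax 0) = s + (1 / 32 : ℝ) • (ax 1 + ax 0) := by
    rw [mul_eq_pr (mul := mul), pr_comm hc, show pr mul (ax 0) (ax 1) = s from hs 0]
  have p12 : mul (ax 1) (ax 2) = s + (1 / 32 : ℝ) • (ax 1 + ax 2) := by
    rw [mul_eq_pr (mul := mul), show pr mul (ax 1) (ax 2) = s from hs 1]
  have p11m : mul (ax 1) (ax (-1)) = t1 + (1 / 32 : ℝ) • (ax 1 + ax (-1)) := by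
    rw [mul_eq_pr (mul := mul), pr_comm hc]
  have p12m : mul (ax 1) (ax (-2)) = q1 + (1 / 32 : ℝ) • (ax 1 + ax (-2)) := by
    rw [mul_eq_pr (mul := mul), pr_comm hc]
  have p13 : mul (ax 1) (ax 3) = t1 + (1 / 32 : ℝ) • (ax 1 + ax 3) := by
    rw [mul_eq_pr (mul := mul), t13]
  have a0t : mul (ax 0) t0 = (7 / 32 : ℝ) • t0 + (3 / 4 * M - 25 / 1024) • ax 0
      + (7 / 2048 : ℝ) • (ax 2 + ax (-2)) := by
    obtain ⟨μ, hμ, h⟩ := hS.refl 0
    have h1 := (pair_facts (b := ax 2) hV hμ (hS.norm 0)).2.2.2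
    rw [h] at h1
    norm_num at h1
    rw [ht0, hM, h1, smul_add]
  have a1t : mul (ax 1) t1 = (7 / 32 : ℝ) • t1 + (3 / 4 * Mo - 25 / 1024) • ax 1
      + (7 / 2048 : ℝ) • (ax 3 + ax (-1)) := by
    obtain ⟨μ, hμ, h⟩ := hS.refl 1
    have h1 := (pair_facts (b := ax 3) hV hμ (hS.norm 1)).2.2.2
    rw [h, t13, g13] at h1
    norm_num at h1
    rw [h1, smul_add]
  -- inner products with the invariant parts
  have fs : ∀ j, B (ax j) s = L - (1 + L) / 32 := fun j => by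
    rw [← hs j, form_self hV (hS.idem j) (hS.norm j), hl]
  have f0_0 : B (ax 0) t0 = M - (1 + M) / 32 := form_self hV (hS.idem 0) (hS.norm 0)
  have f0_2 : B (ax 2) t0 = M - (1 + M) / 32 := by
    rw [← t24, form_self hV (hS.idem 2) (hS.norm 2), g24]
  have f0_m2 : B (ax (-2)) t0 = M - (1 + M) / 32 := by
    rw [← tm20, form_self hV (hS.idem (-2)) (hS.norm (-2)), gm20]
  have f0_4 : B (ax 4) t0 = M - (1 + M) / 32 := by
    rw [← t24, pr_comm hc, form_self hV (hS.idem 4) (hS.norm 4), hsy, g24]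
  have f1_1 : B (ax 1) t1 = Mo - (1 + Mo) / 32 := by
    rw [← t13, form_self hV (hS.idem 1) (hS.norm 1), g13]
  have f1_m1 : B (ax (-1)) t1 = Mo - (1 + Mo) / 32 := form_self hV (hS.idem (-1)) (hS.norm (-1))
  have f1_3 : B (ax 3) t1 = Mo - (1 + Mo) / 32 := by
    rw [← t13, pr_comm hc, form_self hV (hS.idem 3) (hS.norm 3), hsy, g13]
  have f0_1 : B (ax 1) t0 = L - (1 + L) / 32 + (M - L) / 32 := by
    rw [ht0, form_move hV, pr_comm hc, show pr mul (ax 1) (ax 2) = s from hs 1, fs, d3]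
  have f0_m1 : B (ax (-1)) t0 = L - (1 + L) / 32 + (M - L) / 32 := by
    rw [← tm20, form_move hV, pr_comm hc, show pr mul (ax (-1)) (ax 0) = s from hs (-1), fs, gm20, d1]
  have f0_3 : B (ax 3) t0 = L - (1 + L) / 32 + (M - L) / 32 := by
    rw [← t24, form_move hV, pr_comm hc, show pr mul (ax 3) (ax 4) = s from hs 3, fs, g24, d5]
  have f1_0 : B (ax 0) t1 = L - (1 + L) / 32 + (Mo - L) / 32 := by
    rw [ht1, form_move hV, pr_comm hc, show pr mul (ax 0) (ax 1) = s from hs 0, fs, d2]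
  have f1_2 : B (ax 2) t1 = L - (1 + L) / 32 + (Mo - L) / 32 := by
    rw [← t13, form_move hV, pr_comm hc, show pr mul (ax 2) (ax 3) = s from hs 2, fs, g13, d4]
  have f1_m2 : B (ax (-2)) t1 = L - (1 + L) / 32 + (Mo - L) / 32 := by
    have h := hS.pr_step hV (-1) 2
    norm_num at h
    rw [ht1, h, form_move hV, pr_comm hc, show pr mul (ax (-2)) (ax (-1)) = s from hs (-2), fs, d0]
    rw [show B (ax (-3)) (ax (-1)) = Mo from sh (-3) (-1)]
  have f1_4 : B (ax 4) t1 = L - (1 + L) / 32 + (Mo - L) / 32 := by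
    have h := hS.pr_step hV 3 2
    norm_num at h
    rw [← t13, ← h, form_move hV, pr_comm hc, show pr mul (ax 4) (ax 5) = s from hs 4, fs,
      show B (ax 4) (ax 5) = L from hl 4,
      show B (ax 3) (ax 5) = Mo from (sh 1 3).symm.trans g13]
  have fq0_0 : B (ax 0) q0 = N - (1 + N) / 32 := form_self hV (hS.idem 0) (hS.norm 0)
  have fq0_m2 : B (ax (-2)) q0 = L - (1 + L) / 32 + (N - L) / 32 := by
    rw [← qm30, pr_comm hc, form_move hV, show pr mul (ax (-3)) (ax (-2)) = s from hs (-3), fs,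
      gm30, hsy (ax (-2)) (ax (-3)), d6]
  have fq1_m2 : B (ax (-2)) q1 = N - (1 + N) / 32 := by
    rw [hq1, form_self hV (hS.idem (-2)) (hS.norm (-2)), gm21]
  -- scalar equations
  have n0 := hS.norm 0
  have n1 := hS.norm 1
  have n2 := hS.norm 2
  have n3 := hS.norm 3
  have nm1 := hS.norm (-1)
  have nm2 := hS.norm (-2)
  have e0 := congrArg (fun w => B (ax 0) w) hr
  have e1 := congrArg (fun w => B (ax 1) w) hr
  have e2 := congrArg (fun w => B (ax 2) w) hr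
  have em1 := congrArg (fun w => B (ax (-1)) w) hr
  have e3 := congrArg (fun w => B (ax 3) w) hr
  have e4 := congrArg (fun w => B (ax 4) w) hr
  have r0 := congrArg (fun w => mul (ax 0) w) hr
  have r1 := congrArg (fun w => mul (ax 1) w) hr
  simp only [map_add, map_sub, map_neg, map_smul, map_zero, i0, i1, p0, p0m, p02, p02m, p03, p10, p12, p11m, p12m, p13,
    a0t, a1t, hX0, hX1] at r0 r1
  have u0 := congrArg (fun w => B (ax 0) w) r0
  have w0 := congrArg (fun w => B (ax (-2)) w) r0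
  have w1 := congrArg (fun w => B (ax (-2)) w) r1
  simp only [map_add, map_sub, map_neg, map_smul, map_zero, smul_eq_mul, n0, n1, n2, n3, nm1, nm2,
    ← hM, ← hMo, ← hN, ← hP, ← hPo, ← hQ, ← hR, g13, g24, gm20, gm13, gm22, gm23, gm24, g14, gm21,
    gm12, gm14, d0, d1, d2, d3, d4, d5,
    hsy (ax 0) (ax (-2)), hsy (ax 0) (ax (-1)), hsy (ax 1) (ax (-2)), hsy (ax 1) (ax (-1)),
    hsy (ax 1) (ax 0), hsy (ax 2) (ax (-2)), hsy (ax 2) (ax (-1)), hsy (ax 2) (ax 0),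
    hsy (ax 2) (ax 1), hsy (ax 3) (ax (-2)), hsy (ax 3) (ax (-1)), hsy (ax 3) (ax 0),
    hsy (ax 3) (ax 1), hsy (ax 3) (ax 2), hsy (ax 4) (ax (-2)), hsy (ax 4) (ax (-1)),
    hsy (ax 4) (ax 0), hsy (ax 4) (ax 1), hsy (ax 4) (ax 2), hsy (ax 4) (ax 3), hsy (ax (-1)) (ax (-2)),
    fs, f0_0, f0_2, f0_m2, f0_4, f1_1, f1_m1, f1_3, f0_1, f0_m1, f0_3, f1_0, f1_2, f1_m2, f1_4,
    fq0_0, fq0_m2, fq1_m2] at e0 e1 e2 em1 e3 e4 u0 w0 w1
  clear_value M Mo N P Po Q R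
  have hMM : Mo = M := by linear_combination (196608 / 49 : ℝ) * (e0 - u0)
  subst hMM
  have hNe : N = (33/7 : ℝ) + (-2169/7 : ℝ)*L + (-33/7 : ℝ)*Mo + (36864/7 : ℝ)*L^2
      + (-1920/7 : ℝ)*L*Mo + (-32768/7 : ℝ)*L^3 := by
    linear_combination (196608 / 49 : ℝ) * e1
  subst hNe
  have hPe : P = (156/7 : ℝ) + (-19840/7 : ℝ)*L + (-3 : ℝ)*Mo + (110592 : ℝ)*L^2 + (-640/7 : ℝ)*L*Mo
      + (-128/7 : ℝ)*Mo^2 + (-9601024/7 : ℝ)*L^3 + (65536 : ℝ)*L^2*Mo + (8388608/7 : ℝ)*L^4 := by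
    linear_combination (196608 / 49 : ℝ) * e2
  subst hPe
  have hPoe : Po = (156/7 : ℝ) + (-19840/7 : ℝ)*L + (-3 : ℝ)*Mo + (110592 : ℝ)*L^2 + (-640/7 : ℝ)*L*Mo
      + (-128/7 : ℝ)*Mo^2 + (-9601024/7 : ℝ)*L^3 + (65536 : ℝ)*L^2*Mo + (8388608/7 : ℝ)*L^4 := by
    linear_combination (-196608 / 49 : ℝ) * em1
  subst hPoe
  have hQe : Q = (5512/49 : ℝ) + (-137721/7 : ℝ)*L + (-5256/49 : ℝ)*Mo + (8683520/7 : ℝ)*L^2
      + (259584/49 : ℝ)*L*Mo + (-256/49 : ℝ)*Mo^2 + (-1633419264/49 : ℝ)*L^3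
      + (12582912/49 : ℝ)*L^2*Mo + (475136/49 : ℝ)*L*Mo^2 + (16273899520/49 : ℝ)*L^4
      + (-754974720/49 : ℝ)*L^3*Mo + (-13958643712/49 : ℝ)*L^5 := by
    linear_combination (196608 / 49 : ℝ) * e3
  subst hQe
  have hRe : R = (29013/49 : ℝ) + (-904320/7 : ℝ)*L + (-46500/49 : ℝ)*Mo + (542429184/49 : ℝ)*L^2
      + (5162880/49 : ℝ)*L*Mo + (1152/49 : ℝ)*Mo^2 + (-22767894528/49 : ℝ)*L^3
      + (-97910784/49 : ℝ)*L^2*Mo + (2457600/49 : ℝ)*L*Mo^2 + (16384/49 : ℝ)*Mo^3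
      + (469317451776/49 : ℝ)*L^4 + (-5511315456/49 : ℝ)*L^3*Mo + (-25165824/7 : ℝ)*L^2*Mo^2
      + (-3917010173952/49 : ℝ)*L^5 + (177167400960/49 : ℝ)*L^4*Mo
      + (3298534883328/49 : ℝ)*L^6 := by
    linear_combination (196608 / 49 : ℝ) * e4
  subst hRe
  have E1 : (39/2097152 : ℝ) + (-75/32768 : ℝ)*L + (-167/2097152 : ℝ)*Mo + (45/512 : ℝ)*L^2
      + (139/32768 : ℝ)*L*Mo + (1/16384 : ℝ)*Mo^2 + (-71/64 : ℝ)*L^3 + (5/256 : ℝ)*L^2*Mo + L^4 = 0 := by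
    linear_combination (-1 / 28 : ℝ) * w0
  have E2 : (117/536870912 : ℝ) + (-63/16777216 : ℝ)*L + (-2901/536870912 : ℝ)*Mo
      + (-105/65536 : ℝ)*L^2 + (5183/16777216 : ℝ)*L*Mo + (87/16777216 : ℝ)*Mo^2
      + (1347/16384 : ℝ)*L^3 + (-389/131072 : ℝ)*L^2*Mo + (23/131072 : ℝ)*L*Mo^2
      + (-577/512 : ℝ)*L^4 + (25/512 : ℝ)*L^3*Mo + L^5 = 0 := by
    linear_combination (-1 / 2048 : ℝ) * w1
  have hF : (-2925/1048576 - 5955/16384*L + 2205/64*L^2 + 15*L^3) * Mo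
      + (2925/1048576 - 4605/16384*L + 1305/256*L^2 + 4995/32*L^3 - 4050*L^4 + 3840*L^5) = 0 := by
    linear_combination (-2048 : ℝ) * E2 + 2048 * (87/1024 + 23/8*L) * E1
  have hprod : L * (L - 1) * (L - 1/8) * (L - 13/256) * (L - 1/64) ^ 2 * (L - 1/32) * (L - 3/128)
      * (L - 5/256) = 0 := by
    linear_combination (-28 / 77175 : ℝ) * ((-2925/1048576 - 5955/16384*L + 2205/64*L^2 + 15*L^3) ^ 2) * E1
      + (28 / 77175 : ℝ) * ((1/16384) * (-2925/1048576 - 5955/16384*L + 2205/64*L^2 + 15*L^3) * Mo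
        - (1/16384) * (2925/1048576 - 4605/16384*L + 1305/256*L^2 + 4995/32*L^3 - 4050*L^4 + 3840*L^5)
        + (-167/2097152 + 139/32768*L + 5/256*L^2)
          * (-2925/1048576 - 5955/16384*L + 2205/64*L^2 + 15*L^3)) * hF
  simp only [mul_eq_zero, sub_eq_zero, pow_eq_zero_iff, ne_eq, OfNat.ofNat_ne_zero, not_false_eq_true,
    or_assoc] at hprod
  rcases hprod with h | h | h | h | h | h | h | h <;> subst h <;> norm_num at hF E1
  · have hm : Mo = 1 := by linarith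
    exact ⟨2, by norm_num, by norm_num, hM.symm.trans hm⟩
  · exact ⟨1, le_rfl, by norm_num, hl 0⟩
  · have hm : Mo = 1 := by linarith
    exact ⟨2, by norm_num, by norm_num, hM.symm.trans hm⟩
  · have hm : Mo = 13 / 256 := by linarith
    refine ⟨3, by norm_num, by norm_num, ?_⟩
    rw [Nat.cast_ofNat, ← hN, hm]; norm_num
  · have hm : (Mo - 1 / 64) * (Mo - 1 / 8) = 0 := by linear_combination (16384 : ℝ) * E1
    rcases mul_eq_zero.1 hm with h | h
    · refine ⟨3, by norm_num, by norm_num, ?_⟩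
      rw [Nat.cast_ofNat, ← hN, sub_eq_zero.1 h]; norm_num
    · refine ⟨4, by norm_num, by norm_num, ?_⟩
      rw [Nat.cast_ofNat, ← hP, sub_eq_zero.1 h]; norm_num
  · have hm : Mo = 0 := by linarith
    refine ⟨4, by norm_num, by norm_num, ?_⟩
    rw [Nat.cast_ofNat, ← hP, hm]; norm_num
  · have hm : Mo = 3 / 128 := by linarith
    refine ⟨5, by norm_num, by norm_num, ?_⟩
    rw [Nat.cast_ofNat, ← hQ, hm]; norm_num
  · have hm : Mo = 13 / 256 := by linarith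
    refine ⟨6, by norm_num, by norm_num, ?_⟩
    rw [Nat.cast_ofNat, ← hR, hm]; norm_num

end CfsgLib.Majorana
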